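import Cfsg.Agent.H48.HT.Four
import Cfsg.Agent.H337.HT.Cand

/-!
# S3540, quasisimple rows, `n = 3`: `A₅`, `A₆`, `L₂(7)` (helper48)

`V4` : a four-group `{a, b, a b}` of `S` permuted by an element `x` of order 3: the weights of the four-group are three lines permuted
by `x`, `x ^ 3 = 1`, the eigenspaces of `x` are lines and `x` has a fixed vector.
-/

set_option autoImplicit false

namespace Cfsg.Agent.H48.HT

open Cfsg.Agent.H828.HT Cfsg.Agent.H337.HT
open Cfsg.Agent.H578.HT (cov_card covL_card rank_two' finK card_V)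

universe u w

section linear

variable {K : Type w} [Field K] {V : Type u} [AddCommGroup V] [Module K V]

/-- three weight vectors of a four-group -/
theorem three_basis (h2 : (2 : K) ≠ 0) (hn : Module.finrank K V = 3) {A B X : Module.End K V} (hA : A * A = 1)
    (hA1 : A ≠ 1) (hB : B * B = 1) (hAB : A * B = B * A) (hXA : X * A = B * X) (hXB : X * B = A * B * X)
    (hX : Function.Injective X) :
    ∃ b : Module.Basis (Fin 3) K V, ∃ l : K, X (b 0) = b 1 ∧ X (b 1) = b 2 ∧ X (b 2) = l • b 0 := by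
  have hXAB : X * (A * B) = A * X := by
    rw [← mul_assoc, hXA, mul_assoc, hXB, ← mul_assoc, ← mul_assoc, ← hAB, mul_assoc A B B, hB, mul_one]
  have a1 : ∀ v, A (A v) = v := fun v => congrArg (fun f : Module.End K V => f v) hA
  have b1 : ∀ v, B (B v) = v := fun v => congrArg (fun f : Module.End K V => f v) hB
  have ab : ∀ v, A (B v) = B (A v) := fun v => congrArg (fun f : Module.End K V => f v) hAB
  have xa : ∀ v, X (A v) = B (X v) := fun v => congrArg (fun f : Module.End K V => f v) hXA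
  have xab : ∀ v, X (A (B v)) = A (X v) := fun v => congrArg (fun f : Module.End K V => f v) hXAB
  have two : ∀ v : V, v + v = 0 → v = 0 := fun v hv => by
    rw [← two_smul K] at hv
    exact (smul_eq_zero.1 hv).resolve_left h2
  -- a weight vector
  obtain ⟨w0, hw0, hAw0⟩ : ∃ w : V, w ≠ 0 ∧ A w = -w := by
    obtain ⟨v, hv⟩ : ∃ v, A v ≠ v := by
      by_contra hc
      push Not at hc
      exact hA1 (LinearMap.ext hc)
    exact ⟨A v - v, sub_ne_zero.2 hv, by rw [map_sub, a1]; abel⟩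
  obtain ⟨w, hw, hAw, hBw⟩ : ∃ w : V, w ≠ 0 ∧ A w = -w ∧ B w = w := by
    by_cases h : w0 + B w0 = 0
    · have hB0 : B w0 = -w0 := by rw [eq_neg_iff_add_eq_zero, add_comm]; exact h
      have e1 : A (X w0) = X w0 := by rw [← xab, hB0, map_neg, hAw0, neg_neg]
      have e2 : B (X w0) = -X w0 := by rw [← xa, hAw0, map_neg]
      refine ⟨X (X w0), ?_, ?_, ?_⟩
      · intro h0
        exact hw0 (hX ((hX (h0.trans (map_zero X).symm)).trans (map_zero X).symm))
      · rw [← xab, e2, map_neg, e1, map_neg]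
      · rw [← xa, e1]
    · refine ⟨w0 + B w0, h, ?_, ?_⟩
      · rw [map_add, ab, hAw0, map_neg]; abel
      · rw [map_add, b1]; abel
  have hA1' : A (X w) = -X w := by rw [← xab, hBw, hAw, map_neg]
  have hB1' : B (X w) = -X w := by rw [← xa, hAw, map_neg]
  have hA2 : A (X (X w)) = X (X w) := by rw [← xab, hB1', map_neg, hA1', neg_neg]
  have hB2 : B (X (X w)) = -X (X w) := by rw [← xa, hA1', map_neg]
  have hA3 : A (X (X (X w))) = -X (X (X w)) := by rw [← xab, hB2, map_neg, hA2, map_neg]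
  have hB3 : B (X (X (X w))) = X (X (X w)) := by rw [← xa, hA2]
  have hw1 : X w ≠ 0 := fun h0 => hw (hX (h0.trans (map_zero X).symm))
  have hw2 : X (X w) ≠ 0 := fun h0 => hw1 (hX (h0.trans (map_zero X).symm))
  -- separation of the weights
  have sep : ∀ u0 u1 u2 : V, A u0 = -u0 → B u0 = u0 → A u1 = -u1 → B u1 = -u1 → A u2 = u2 → u0 + u1 + u2 = 0 →
      u0 = 0 ∧ u1 = 0 ∧ u2 = 0 := by
    intro u0 u1 u2 ha0 hb0 ha1 hb1 ha2 h0
    have e1 := congrArg A h0
    rw [map_add, map_add, ha0, ha1, ha2, map_zero] at e1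
    have e2 : u2 = 0 := by
      apply two
      have : u2 + u2 = (u0 + u1 + u2) + (-u0 + -u1 + u2) := by abel
      rw [this, h0, e1, add_zero]
    rw [e2, add_zero] at h0
    have e3 := congrArg B h0
    rw [map_add, hb0, hb1, map_zero] at e3
    have e4 : u0 = 0 := by
      apply two
      have : u0 + u0 = (u0 + u1) + (u0 + -u1) := by abel
      rw [this, h0, e3, add_zero]
    rw [e4, zero_add] at h0
    exact ⟨e4, h0, e2⟩
  have hli : LinearIndependent K ![w, X w, X (X w)] := by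
    rw [Fintype.linearIndependent_iff]
    intro g hg
    rw [Fin.sum_univ_three] at hg
    have h3 := sep (g 0 • w) (g 1 • X w) (g 2 • X (X w)) (by rw [map_smul, hAw, smul_neg]) (by rw [map_smul, hBw])
      (by rw [map_smul, hA1', smul_neg]) (by rw [map_smul, hB1', smul_neg]) (by rw [map_smul, hA2]) hg
    intro i
    fin_cases i
    · exact (smul_eq_zero.1 h3.1).resolve_right hw
    · exact (smul_eq_zero.1 h3.2.1).resolve_right hw1
    · exact (smul_eq_zero.1 h3.2.2).resolve_right hw2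
  let b : Module.Basis (Fin 3) K V := basisOfLinearIndependentOfCardEqFinrank hli (by rw [hn, Fintype.card_fin])
  have hb : (b : Fin 3 → V) = ![w, X w, X (X w)] := coe_basisOfLinearIndependentOfCardEqFinrank _ _
  have hb0 : b 0 = w := congrFun hb 0
  have hb1 : b 1 = X w := congrFun hb 1
  have hb2 : b 2 = X (X w) := congrFun hb 2
  refine ⟨b, b.repr (X (X (X w))) 0, by rw [hb0, hb1], by rw [hb1, hb2], ?_⟩
  rw [hb2, hb0]
  have hs := b.sum_repr (X (X (X w)))
  rw [Fin.sum_univ_three, hb0, hb1, hb2] at hs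
  set c := b.repr (X (X (X w))) with hc
  have h3 := sep (c 0 • w - X (X (X w))) (c 1 • X w) (c 2 • X (X w))
    (by rw [map_sub, map_smul, hAw, smul_neg, hA3]; abel) (by rw [map_sub, map_smul, hBw, hB3])
    (by rw [map_smul, hA1', smul_neg]) (by rw [map_smul, hB1', smul_neg]) (by rw [map_smul, hA2]) (by
      have : c 0 • w - X (X (X w)) + c 1 • X w + c 2 • X (X w) =
        (c 0 • w + c 1 • X w + c 2 • X (X w)) - X (X (X w)) := by abel
      rw [this, hs, sub_self])
  exact (sub_eq_zero.1 h3.1).symm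

variable {X : Module.End K V} {b : Module.Basis (Fin 3) K V} {l : K}

theorem det_cyc (h0 : X (b 0) = b 1) (h1 : X (b 1) = b 2) (h2 : X (b 2) = l • b 0) : LinearMap.det X = l := by
  rw [← LinearMap.det_toMatrix b, Matrix.det_fin_three]
  simp only [LinearMap.toMatrix_apply, h0, h1, h2, map_smul, Module.Basis.repr_self, Finsupp.smul_single,
    Finsupp.single_apply]
  simp

theorem pow_cyc (h0 : X (b 0) = b 1) (h1 : X (b 1) = b 2) (h2 : X (b 2) = (1 : K) • b 0) : X ^ 3 = 1 := by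
  rw [one_smul] at h2
  refine b.ext fun i => ?_
  rw [pow_succ, pow_two, Module.End.mul_apply, Module.End.mul_apply, Module.End.one_apply]
  fin_cases i
  · show X (X (X (b 0))) = b 0
    rw [h0, h1, h2]
  · show X (X (X (b 1))) = b 1
    rw [h1, h2, h0]
  · show X (X (X (b 2))) = b 2
    rw [h2, h0, h1]

theorem eig_cyc (h0 : X (b 0) = b 1) (h1 : X (b 1) = b 2) (h2 : X (b 2) = (1 : K) • b 0) (c : K) :
    Module.finrank K (Module.End.eigenspace X c) ≤ 1 := by
  rw [one_smul] at h2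
  have hinj : Function.Injective ((b.coord 0).domRestrict (Module.End.eigenspace X c)) := by
    rw [← LinearMap.ker_eq_bot, LinearMap.ker_eq_bot']
    rintro ⟨v, hv⟩ hv0
    rw [Module.End.mem_eigenspace_iff] at hv
    have e0 : b.repr v 0 = 0 := hv0
    have hs := b.sum_repr v
    rw [Fin.sum_univ_three, e0, zero_smul, zero_add] at hs
    have hXv : X v = b.repr v 1 • b 2 + b.repr v 2 • b 0 := by
      conv_lhs => rw [← hs]
      rw [map_add, map_smul, map_smul, h1, h2]
    have e1 : b.repr (X v) 0 = b.repr v 2 := by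
      rw [hXv, map_add, map_smul, map_smul]
      simp
    have e2 : b.repr (X v) 2 = b.repr v 1 := by
      rw [hXv, map_add, map_smul, map_smul]
      simp
    rw [hv, map_smul, Finsupp.smul_apply, smul_eq_mul] at e1 e2
    rw [e0, mul_zero] at e1
    rw [← e1, mul_zero] at e2
    apply Subtype.ext
    show v = 0
    rw [← hs, ← e1, ← e2, zero_smul, zero_smul, add_zero]
  have := LinearMap.finrank_le_finrank_of_injective hinj
  rwa [Module.finrank_self] at this

theorem fix_cyc (h0 : X (b 0) = b 1) (h1 : X (b 1) = b 2) (h2 : X (b 2) = (1 : K) • b 0) :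
    ∃ v : V, v ≠ 0 ∧ X v = v := by
  rw [one_smul] at h2
  refine ⟨b 0 + b 1 + b 2, fun h => ?_, ?_⟩
  · have e := congrArg (fun v => b.repr v 0) h
    simp at e
  · rw [map_add, map_add, h0, h1, h2]; abel

end linear

variable {p : ℕ} [Fact p.Prime] {K : Type w} [Field K] {V : Type u} [AddCommGroup V] [Module (ZMod p) V]
  [Module K V] {G L : Subgroup (V ≃ₗ[ZMod p] V)} {h : ℕ}

/-- a four-group permuted by `s` -/
def FG {S : Type*} [Group S] (s : S) : Prop :=
  ∃ t : S, t ^ 2 = 1 ∧ t ≠ 1 ∧ t * (s * t * s⁻¹) = (s * t * s⁻¹) * t ∧ s * (s * t * s⁻¹) * s⁻¹ = t * (s * t * s⁻¹)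

/-- the basis -/
theorem fg_basis (H : QS p K V G L h) [Finite V] (hn : Module.finrank K V = 3)
    (h2 : 2 ∣ Nat.card (L ⧸ Subgroup.center L)) {x : L} (hx : FG (x : L ⧸ Subgroup.center L)) :
    ∃ b : Module.Basis (Fin 3) K V, rho H x (b 0) = b 1 ∧ rho H x (b 1) = b 2 ∧ rho H x (b 2) = (1 : K) • b 0 := by
  obtain ⟨t, ht2, ht1, hc, hr⟩ := hx
  have c2 : Nat.Coprime 2 (Module.finrank K V) := by rw [hn]; decide
  have z2 : ∀ z : L, z ∈ Subgroup.center L → z ^ 2 = 1 → z = 1 := by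
    intro z hz hz2
    have h6 := center_pow H hz
    rw [← pow_one z, ← (c2 : Nat.gcd 2 _ = 1)]
    exact pow_gcd_eq_one.2 ⟨hz2, h6⟩
  obtain ⟨a, rfl, ha2⟩ := lift H c2 ht2
  have ha1 : a ≠ 1 := by rintro rfl; exact ht1 rfl
  set b := x * a * x⁻¹ with hb
  have hb2 : b ^ 2 = 1 := by rw [hb, conj_pow, ha2, mul_one, mul_inv_cancel]
  have ea : a * a = 1 := by rw [← pow_two]; exact ha2
  have eb : b * b = 1 := by rw [← pow_two]; exact hb2
  have hcomm : a * b = b * a := by
    have hz : a * b * (b * a)⁻¹ ∈ Subgroup.center L := by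
      rw [← QuotientGroup.eq_one_iff]
      change (a : L ⧸ Subgroup.center L) * (b : L ⧸ Subgroup.center L) * ((b : L ⧸ Subgroup.center L) * a)⁻¹ = 1
      rw [mul_inv_eq_one]
      exact hc
    set z := a * b * (b * a)⁻¹ with hzd
    have e1 : a * b = z * (b * a) := by rw [hzd, inv_mul_cancel_right]
    have cz := Subgroup.mem_center_iff.1 hz
    have e2 : a * b * a = z * b := by
      calc a * b * a = z * (b * a) * a := by rw [e1]
        _ = z * b * (a * a) := by group
        _ = z * b := by rw [ea, mul_one]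
    have e3 : z ^ 2 = 1 := by
      have e4 : (a * b * a) * (a * b * a) = 1 := by
        calc (a * b * a) * (a * b * a) = a * b * (a * a) * b * a := by group
          _ = a * (b * b) * a := by rw [ea, mul_one]; group
          _ = 1 := by rw [eb, mul_one, ea]
      rw [e2] at e4
      calc z ^ 2 = z * z * (b * b) := by rw [eb, mul_one, pow_two]
        _ = z * (z * b) * b := by group
        _ = z * (b * z) * b := by rw [cz b]
        _ = z * b * (z * b) := by group
        _ = 1 := e4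
    rw [e1, z2 z hz e3, one_mul]
  have hrel : x * b * x⁻¹ = a * b := by
    have hz : x * b * x⁻¹ * (a * b)⁻¹ ∈ Subgroup.center L := by
      rw [← QuotientGroup.eq_one_iff]
      change (x : L ⧸ Subgroup.center L) * (b : L ⧸ Subgroup.center L) * (x : L ⧸ Subgroup.center L)⁻¹ *
        ((a : L ⧸ Subgroup.center L) * (b : L ⧸ Subgroup.center L))⁻¹ = 1
      rw [mul_inv_eq_one]
      exact hr
    set z := x * b * x⁻¹ * (a * b)⁻¹ with hzd
    have e1 : x * b * x⁻¹ = z * (a * b) := by rw [hzd, inv_mul_cancel_right]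
    have cz := Subgroup.mem_center_iff.1 hz
    have e3 : z ^ 2 = 1 := by
      have e4 : (x * b * x⁻¹) ^ 2 = 1 := by rw [conj_pow, hb2, mul_one, mul_inv_cancel]
      have e5 : (a * b) ^ 2 = 1 := by
        rw [pow_two]
        calc a * b * (a * b) = a * b * (b * a) := by rw [hcomm]
          _ = a * (b * b) * a := by group
          _ = 1 := by rw [eb, mul_one, ea]
      rw [e1, Commute.mul_pow (cz _).symm, e5, mul_one] at e4
      exact e4
    rw [e1, z2 z hz e3, one_mul]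
  have hxa : x * a = b * x := by rw [hb, inv_mul_cancel_right]
  have hxb : x * b = a * b * x := by rw [← hrel, inv_mul_cancel_right]
  obtain ⟨bs, l, h0, h1, h2⟩ := three_basis (K := K) (by exact_mod_cast cast_ne H (dvd_L h2) (by norm_num)) hn
    (A := rho H a) (B := rho H b) (X := rho H x) (by rw [← map_mul, ea, map_one]) (rho_ne_one H ha1)
    (by rw [← map_mul, eb, map_one]) (by rw [← map_mul, hcomm, map_mul]) (by rw [← map_mul, hxa, map_mul])
    (by rw [← map_mul, hxb, map_mul, map_mul]) (rho_injective H x)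
  have hl : l = 1 := by rw [← det_cyc h0 h1 h2, det_rho]
  rw [hl] at h2
  exact ⟨bs, h0, h1, h2⟩

/-- **the bound**: `q ^ 3 - 1 ≤ 3 N (q - 1)` -/
theorem three_bound (H : QS p K V G L h) [Finite V] (hn : Module.finrank K V = 3)
    (h2 : 2 ∣ Nat.card (L ⧸ Subgroup.center L)) (h3 : 3 ∣ Nat.card (L ⧸ Subgroup.center L)) {N : ℕ}
    (hout : ¬ 3 ∣ Nat.card (MulAut (L ⧸ Subgroup.center L)) / Nat.card (L ⧸ Subgroup.center L))
    (hN : Nat.card {R : Subgroup (L ⧸ Subgroup.center L) // Nat.card R = 3} ≤ N)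
    (hFG : ∀ s : L ⧸ Subgroup.center L, s ^ 3 = 1 → s ≠ 1 → FG s) :
    3 ∣ h ∧ Nat.card K ^ 3 - 1 ≤ N * 3 * (Nat.card K - 1) := by
  have hfd : FiniteDimensional K V := Module.Finite.of_finite
  have hfG : Finite G := Nat.finite_of_card_ne_zero fun h0 => H.cop (h0 ▸ dvd_zero p)
  have hfL : Finite L := Finite.of_injective (Subgroup.inclusion H.le) (Subgroup.inclusion_injective _)
  have h1 : 3 ∣ h := by
    have : Fact (Nat.Prime 3) := ⟨by norm_num⟩
    obtain ⟨s, hs⟩ := exists_prime_orderOf_dvd_card' 3 h3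
    obtain ⟨x, rfl⟩ := QuotientGroup.mk_surjective s
    have hs3 : (x : L ⧸ Subgroup.center L) ^ 3 = 1 := by rw [← hs]; exact pow_orderOf_eq_one _
    have hs1 : (x : L ⧸ Subgroup.center L) ≠ 1 := by intro h0; rw [h0, orderOf_one] at hs; omega
    obtain ⟨b, e0, e1, e2⟩ := fg_basis H hn h2 (hFG _ hs3 hs1)
    have hx3 : x ^ 3 = 1 := rho_inj H (by rw [map_pow, pow_cyc e0 e1 e2, map_one])
    obtain ⟨v, hv0, hv⟩ := fix_cyc e0 e1 e2
    exact dvd_h_of H (by norm_num) hx3 (by rintro rfl; exact hs1 rfl) hv0 hv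
  refine ⟨h1, ?_⟩
  have h4 := cov_card H (r := 3) (by norm_num) h1 hout (d := 1) (k := 3) (N := N) (fun x hx hxr c => by
    rw [card_eig H]
    have := finK H
    refine Nat.pow_le_pow_right Nat.card_pos ?_
    obtain ⟨b, e0, e1, e2⟩ := fg_basis H hn h2 (hFG (x : L ⧸ Subgroup.center L)
      (by rw [← QuotientGroup.mk_pow, QuotientGroup.eq_one_iff]; exact hxr)
      (fun h0 => hx ((QuotientGroup.eq_one_iff x).1 h0)))
    exact eig_cyc e0 e1 e2 c) (by rw [hn]) hN
  rwa [hn, pow_one] at h4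

theorem lt_of_bound {q m N : ℕ} (hq : 2 ≤ q) (hm : q ^ 3 - 1 ≤ N * 3 * (q - 1)) (hN : N * 3 < m ^ 2 + m + 1) : q < m := by
  obtain ⟨k, rfl⟩ : ∃ k, q = k + 2 := ⟨q - 2, by omega⟩
  have e1 : (k + 2) ^ 3 - 1 = ((k + 2) ^ 2 + (k + 2) + 1) * (k + 1) := by
    have : (k + 2) ^ 3 = ((k + 2) ^ 2 + (k + 2) + 1) * (k + 1) + 1 := by ring
    omega
  rw [e1, show k + 2 - 1 = k + 1 by omega] at hm
  have h2 := Nat.le_of_mul_le_mul_right hm (by omega)
  by_contra hc
  have : m ≤ k + 2 := by omega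
  nlinarith

/-! ### The groups -/

section groups

open Equiv Equiv.Perm

variable {S : Type u} [Group S]

theorem fgp5 : ∀ s : Perm (Fin 5), s ^ 3 = 1 → s ≠ 1 → ∃ i j k l : Fin 5, i ≠ j ∧ k ≠ l ∧ (swap i j * swap k l) ^ 2 = 1 ∧
    swap i j * swap k l ≠ 1 ∧
    (swap i j * swap k l) * (s * (swap i j * swap k l) * s⁻¹) = (s * (swap i j * swap k l) * s⁻¹) * (swap i j * swap k l) ∧
    s * (s * (swap i j * swap k l) * s⁻¹) * s⁻¹ = (swap i j * swap k l) * (s * (swap i j * swap k l) * s⁻¹) := by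
  decide +kernel

theorem fgp6 : ∀ s : Perm (Fin 6), s ^ 3 = 1 → s ≠ 1 → ∃ i j k l : Fin 6, i ≠ j ∧ k ≠ l ∧ (swap i j * swap k l) ^ 2 = 1 ∧
    swap i j * swap k l ≠ 1 ∧
    (swap i j * swap k l) * (s * (swap i j * swap k l) * s⁻¹) = (s * (swap i j * swap k l) * s⁻¹) * (swap i j * swap k l) ∧
    s * (s * (swap i j * swap k l) * s⁻¹) * s⁻¹ = (swap i j * swap k l) * (s * (swap i j * swap k l) * s⁻¹) := by
  decide +kernel

theorem fg_of_perm {m : ℕ} (e : S ≃* alternatingGroup (Fin m)) {s : S}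
    (h : ∃ i j k l : Fin m, i ≠ j ∧ k ≠ l ∧ (swap i j * swap k l) ^ 2 = 1 ∧ swap i j * swap k l ≠ 1 ∧
    (swap i j * swap k l) * ((e s : Perm (Fin m)) * (swap i j * swap k l) * (e s : Perm (Fin m))⁻¹) =
      ((e s : Perm (Fin m)) * (swap i j * swap k l) * (e s : Perm (Fin m))⁻¹) * (swap i j * swap k l) ∧
    (e s : Perm (Fin m)) * ((e s : Perm (Fin m)) * (swap i j * swap k l) * (e s : Perm (Fin m))⁻¹) * (e s : Perm (Fin m))⁻¹ =
      (swap i j * swap k l) * ((e s : Perm (Fin m)) * (swap i j * swap k l) * (e s : Perm (Fin m))⁻¹)) : FG s := by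
  obtain ⟨i, j, k, l, hij, hkl, h1, h2, h3, h4⟩ := h
  have ht : swap i j * swap k l ∈ alternatingGroup (Fin m) := by
    rw [mem_alternatingGroup, map_mul, sign_swap hij, sign_swap hkl]; rfl
  refine ⟨e.symm ⟨swap i j * swap k l, ht⟩, ?_, ?_, ?_, ?_⟩
  · apply e.injective
    apply Subtype.ext
    rw [map_pow, e.apply_symm_apply, map_one]
    exact h1
  · intro h
    rw [MulEquiv.symm_apply_eq, map_one] at h
    exact h2 (congrArg Subtype.val h)
  · apply e.injective
    apply Subtype.ext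
    simp only [map_mul, map_inv, e.apply_symm_apply]
    exact h3
  · apply e.injective
    apply Subtype.ext
    simp only [map_mul, map_inv, e.apply_symm_apply]
    exact h4

theorem fg_A5 (e : S ≃* alternatingGroup (Fin 5)) (s : S) (hs : s ^ 3 = 1) (hs1 : s ≠ 1) : FG s := by
  refine fg_of_perm e (fgp5 _ ?_ ?_)
  · rw [← Subgroup.coe_pow, ← map_pow, hs, map_one]; rfl
  · intro h
    exact hs1 (e.injective (Subtype.ext (by rw [h, map_one]; rfl)))

theorem fg_A6 (e : S ≃* alternatingGroup (Fin 6)) (s : S) (hs : s ^ 3 = 1) (hs1 : s ≠ 1) : FG s := by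
  refine fg_of_perm e (fgp6 _ ?_ ?_)
  · rw [← Subgroup.coe_pow, ← map_pow, hs, map_one]; rfl
  · intro h
    exact hs1 (e.injective (Subtype.ext (by rw [h, map_one]; rfl)))

theorem FG.inv {s : S} (h : FG s) : FG s⁻¹ := by
  obtain ⟨t, h1, h2, h3, h4⟩ := h
  obtain ⟨b, hb⟩ : ∃ b, b = s * t * s⁻¹ := ⟨_, rfl⟩
  rw [← hb] at h3 h4
  have et : t * t = 1 := by rw [← pow_two]; exact h1
  have eb : b * b = 1 := by
    rw [hb]
    calc s * t * s⁻¹ * (s * t * s⁻¹) = s * (t * t) * s⁻¹ := by group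
      _ = 1 := by rw [et]; group
  have ebs : s⁻¹ * b * s = t := by rw [hb]; group
  have e1 : s⁻¹ * t * s⁻¹⁻¹ = t * b := by
    have : s * (t * b) * s⁻¹ = t := by
      calc s * (t * b) * s⁻¹ = (s * t * s⁻¹) * (s * b * s⁻¹) := by group
        _ = b * (t * b) := by rw [← hb, h4]
        _ = (b * t) * b := by rw [mul_assoc]
        _ = t * (b * b) := by rw [← h3, mul_assoc]
        _ = t := by rw [eb, mul_one]
    calc s⁻¹ * t * s⁻¹⁻¹ = s⁻¹ * (s * (t * b) * s⁻¹) * s := by rw [this, inv_inv]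
      _ = t * b := by group
  refine ⟨t, h1, h2, ?_, ?_⟩
  · rw [e1, mul_assoc t b t, ← h3]
  · rw [e1, ← mul_assoc t t b, et, one_mul]
    calc s⁻¹ * (t * b) * s⁻¹⁻¹ = (s⁻¹ * t * s⁻¹⁻¹) * (s⁻¹ * b * s) := by group
      _ = t * b * t := by rw [e1, ebs]
      _ = b := by rw [h3, mul_assoc, et, mul_one]

theorem FG.conj {s : S} (g : S) (h : FG s) : FG (g * s * g⁻¹) := by
  obtain ⟨t, h1, h2, h3, h4⟩ := h
  have e1 : g * s * g⁻¹ * (g * t * g⁻¹) * (g * s * g⁻¹)⁻¹ = g * (s * t * s⁻¹) * g⁻¹ := by group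
  refine ⟨g * t * g⁻¹, by rw [conj_pow, h1, mul_one, mul_inv_cancel], fun h0 => h2 ?_, ?_, ?_⟩
  · have : t = g⁻¹ * (g * t * g⁻¹) * g := by group
    rw [this, h0, mul_one, inv_mul_cancel]
  · rw [e1]
    calc g * t * g⁻¹ * (g * (s * t * s⁻¹) * g⁻¹) = g * (t * (s * t * s⁻¹)) * g⁻¹ := by group
      _ = g * (s * t * s⁻¹ * t) * g⁻¹ := by rw [h3]
      _ = _ := by group
  · rw [e1]
    calc g * s * g⁻¹ * (g * (s * t * s⁻¹) * g⁻¹) * (g * s * g⁻¹)⁻¹ = g * (s * (s * t * s⁻¹) * s⁻¹) * g⁻¹ := by group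
      _ = g * (t * (s * t * s⁻¹)) * g⁻¹ := by rw [h4]
      _ = _ := by group

open scoped Pointwise in
/-- a Sylow 3-subgroup of order 3 -/
theorem fg_of_sylow [Finite S] {k : ℕ} (hk : Nat.card S = 3 * k) (hrk : ¬ 3 ∣ k) {u : S}
    (hu : orderOf u = 3) (hF : FG u) {s : S} (hs : s ^ 3 = 1) (hs1 : s ≠ 1) : FG s := by
  classical
  have := Fact.mk Nat.prime_three
  have hk0 : k ≠ 0 := by rintro rfl; exact hrk (dvd_zero _)
  have hf : (Nat.card S).factorization 3 = 1 := by
    rw [hk, Nat.factorization_mul Nat.prime_three.ne_zero hk0, Finsupp.add_apply, Nat.prime_three.factorization_self,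
      Nat.factorization_eq_zero_of_not_dvd hrk]
  have hs2 : orderOf s = 3 := orderOf_eq_prime hs hs1
  let P : Sylow 3 S := Sylow.ofCard (Subgroup.zpowers u) (by rw [Nat.card_zpowers, hu, hf, pow_one])
  let Q : Sylow 3 S := Sylow.ofCard (Subgroup.zpowers s) (by rw [Nat.card_zpowers, hs2, hf, pow_one])
  obtain ⟨g, hg⟩ := MulAction.exists_smul_eq S P Q
  have h0 : ((g • P : Sylow 3 S) : Subgroup S) = MulAut.conj g • (P : Subgroup S) := rfl
  have h1 : s ∈ MulAut.conj g • (Subgroup.zpowers u) := by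
    change s ∈ MulAut.conj g • (P : Subgroup S)
    rw [← h0, hg]
    exact Subgroup.mem_zpowers s
  obtain ⟨y, hy, hys⟩ := h1
  have hy1 : s = g * y * g⁻¹ := hys.symm
  have hu3 : u ^ 3 = 1 := by rw [← hu]; exact pow_orderOf_eq_one u
  obtain ⟨i, hi⟩ := (isOfFinOrder_of_finite u).mem_zpowers_iff_mem_range_orderOf.1 hy |> Finset.mem_image.1
  obtain ⟨hi3, hi⟩ := hi
  rw [Finset.mem_range, hu] at hi3
  rw [hy1]
  refine FG.conj g ?_
  interval_cases i
  · exfalso
    apply hs1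
    rw [hy1, ← hi, pow_zero, mul_one, mul_inv_cancel]
  · rw [← hi, pow_one]; exact hF
  · rw [← hi]
    have : u ^ 2 = u⁻¹ := by rw [eq_inv_iff_mul_eq_one, ← pow_succ, hu3]
    rw [this]
    exact hF.inv

/-- the number of subgroups of order 3 -/
theorem sub_of_sylow [Finite S] {k : ℕ} (hk : Nat.card S = 3 * k) (hrk : ¬ 3 ∣ k) {u t : S} (hu : orderOf u = 3)
    (ht : t ^ 2 = 1) (ht1 : t ≠ 1) (htu : t * u * t⁻¹ = u⁻¹) : Nat.card {R : Subgroup S // Nat.card R = 3} * 6 ≤ Nat.card S := by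
  refine H392.HT.card_sub_le Nat.prime_three hk hrk hu ?_
  have hu3 : u ^ 3 = 1 := by rw [← hu]; exact pow_orderOf_eq_one u
  have hu2 : u ^ 2 = u⁻¹ := by rw [eq_inv_iff_mul_eq_one, ← pow_succ, hu3]
  have m1 : t ∈ Subgroup.normalizer (Subgroup.zpowers u : Set S) := H392.HT.mem_norm ⟨2, by rw [htu, hu2]⟩
  have m2 : u ∈ Subgroup.normalizer (Subgroup.zpowers u : Set S) := H392.HT.mem_norm ⟨1, by rw [pow_one]; group⟩
  have := Fact.mk Nat.prime_two
  have h2 : orderOf t = 2 := orderOf_eq_prime ht ht1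
  have d2 : 2 ∣ Nat.card (Subgroup.normalizer (Subgroup.zpowers u : Set S)) := by
    rw [← h2, ← Subgroup.orderOf_mk t m1]
    exact orderOf_dvd_natCard _
  have d3 : 3 ∣ Nat.card (Subgroup.normalizer (Subgroup.zpowers u : Set S)) := by
    rw [← hu, ← Subgroup.orderOf_mk u m2]
    exact orderOf_dvd_natCard _
  exact Nat.Coprime.mul_dvd_of_dvd_of_dvd (by norm_num) d2 d3

/-- matrices over `ZMod 7` -/
def M1 : Matrix.SpecialLinearGroup (Fin 2) (ZMod 7) := ⟨!![6, 0; 0, 6], by decide +kernel⟩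
/-- order 3 -/
def X3 : Matrix.SpecialLinearGroup (Fin 2) (ZMod 7) := ⟨!![0, 6; 1, 6], by decide +kernel⟩
/-- order 4 -/
def I3 : Matrix.SpecialLinearGroup (Fin 2) (ZMod 7) := ⟨!![0, 3; 2, 0], by decide +kernel⟩
/-- order 4 -/
def U3 : Matrix.SpecialLinearGroup (Fin 2) (ZMod 7) := ⟨!![1, 3; 4, 6], by decide +kernel⟩

theorem X3_cube : X3 ^ 3 = 1 := by decide +kernel
theorem X3_I3 : X3 * I3 ≠ I3 * X3 := by decide +kernel
theorem U3_X3 : U3 * X3 ≠ X3 * U3 := by decide +kernel
theorem I3_sq : I3 ^ 2 = M1 := by decide +kernel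
theorem U3_sq : U3 ^ 2 = M1 := by decide +kernel
theorem I3_comm : I3 * (X3 * I3 * X3⁻¹) = M1 * ((X3 * I3 * X3⁻¹) * I3) := by decide +kernel
theorem I3_rel : X3 * (X3 * I3 * X3⁻¹) * X3⁻¹ = I3 * (X3 * I3 * X3⁻¹) := by decide +kernel
theorem U3_rel : U3 * X3 * U3⁻¹ = X3⁻¹ := by decide +kernel
theorem six_sq : (6 : ZMod 7) ^ 2 = 1 := by decide +kernel

/-- `L₂(7)`: a four-group and an involution -/
theorem pair3_L27 (hS : H912.Bd.IsL 2 7 S) : ∃ v t : S, orderOf v = 3 ∧ FG v ∧ t ^ 2 = 1 ∧ t ≠ 1 ∧ t * v * t⁻¹ = v⁻¹ := by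
  obtain ⟨K, _, _, hK, ⟨e⟩⟩ := hS
  have : Fact (Nat.Prime 7) := ⟨by norm_num⟩
  let f : ZMod 7 ≃+* K := ZMod.ringEquivOfPrime K (by norm_num) hK
  let φ : Matrix.SpecialLinearGroup (Fin 2) (ZMod 7) →* Matrix.SpecialLinearGroup (Fin 2) K :=
    Matrix.SpecialLinearGroup.map f.toRingHom
  have hφ : Function.Injective φ := by
    intro a b hab
    apply Subtype.ext
    ext i j
    have h1 := congrArg (fun m : Matrix.SpecialLinearGroup (Fin 2) K => (m : Matrix (Fin 2) (Fin 2) K) i j) hab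
    exact f.injective h1
  let π : Matrix.SpecialLinearGroup (Fin 2) (ZMod 7) →* S :=
    (e.symm.toMonoidHom.comp (QuotientGroup.mk' _)).comp φ
  have hπ : ∀ a b : Matrix.SpecialLinearGroup (Fin 2) (ZMod 7), a * b ≠ b * a → π a ≠ 1 := by
    intro a b hab h
    have h1 : e.symm (QuotientGroup.mk' _ (φ a)) = 1 := h
    rw [MulEquiv.symm_apply_eq, map_one] at h1
    have h2 : φ a ∈ Subgroup.center (Matrix.SpecialLinearGroup (Fin 2) K) := (QuotientGroup.eq_one_iff (φ a)).1 h1
    have h3 := Subgroup.mem_center_iff.1 h2 (φ b)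
    rw [← map_mul, ← map_mul] at h3
    exact hab (hφ h3).symm
  have hm : π M1 = 1 := by
    have h2 : φ M1 ∈ Subgroup.center (Matrix.SpecialLinearGroup (Fin 2) K) := by
      rw [Matrix.SpecialLinearGroup.mem_center_iff]
      refine ⟨f 6, ?_, ?_⟩
      · rw [Fintype.card_fin, ← map_pow, six_sq, map_one]
      · ext a b
        change (Matrix.scalar (Fin 2)) (f 6) a b = f ((M1 : Matrix (Fin 2) (Fin 2) (ZMod 7)) a b)
        fin_cases a <;> fin_cases b <;> simp [M1]
    change e.symm (QuotientGroup.mk' _ (φ M1)) = 1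
    rw [MulEquiv.symm_apply_eq, map_one]
    exact (QuotientGroup.eq_one_iff (φ M1)).2 h2
  refine ⟨π X3, π U3, ?_, ⟨π I3, ?_, ?_, ?_, ?_⟩, ?_, ?_, ?_⟩
  · have := Fact.mk Nat.prime_three
    exact orderOf_eq_prime (by rw [← map_pow, X3_cube, map_one]) (hπ X3 I3 X3_I3)
  · rw [← map_pow, I3_sq, hm]
  · exact hπ I3 X3 X3_I3.symm
  · rw [← map_inv, ← map_mul, ← map_mul, ← map_mul, ← map_mul, I3_comm, map_mul, hm, one_mul]
  · rw [← map_inv, ← map_mul, ← map_mul, ← map_mul, ← map_mul, ← map_mul, I3_rel]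
  · rw [← map_pow, U3_sq, hm]
  · exact hπ U3 X3 U3_X3
  · rw [← map_inv, ← map_inv, ← map_mul, ← map_mul, U3_rel]

theorem card_L27'' (hS : H912.Bd.IsL 2 7 S) : Nat.card S = 3 * 56 := H392.HT.card_L27 hS

theorem fg_L27 (hS : H912.Bd.IsL 2 7 S) (s : S) (hs : s ^ 3 = 1) (hs1 : s ≠ 1) : FG s := by
  have := H392.HT.finite_L27 hS
  obtain ⟨v, t, hv, hF, -⟩ := pair3_L27 hS
  exact fg_of_sylow (card_L27'' hS) (by norm_num) hv hF hs hs1

theorem sub3_L27 (hS : H912.Bd.IsL 2 7 S) : Nat.card {R : Subgroup S // Nat.card R = 3} ≤ 28 := by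
  have := H392.HT.finite_L27 hS
  obtain ⟨v, t, hv, -, ht, ht1, htv⟩ := pair3_L27 hS
  have h := sub_of_sylow (card_L27'' hS) (by norm_num) hv ht ht1 htv
  rw [H392.HT.card_L27 hS] at h
  omega

theorem aut_L27 (hS : H912.Bd.IsL 2 7 S) : Nat.card (MulAut S) = 336 := by
  obtain ⟨K, _, _, hK, ⟨e⟩⟩ := hS
  have : Fact (Nat.Prime 7) := ⟨by norm_num⟩
  rw [Nat.card_congr (MulAut.congr e).toEquiv, S0813.result 7 1 le_rfl (by rw [hK]; rfl) 2 le_rfl (fun _ => by norm_num),
    if_pos rfl, one_mul, ClassicalGeometry.PSL2Basic.card_PGL2, hK]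
  rfl

end groups

/-! ### The three groups -/

/-- `A₅` -/
theorem kill_three_A5 (H : QS p K V G L h) [Finite V] (hn : Module.finrank K V = 3)
    (e : (L ⧸ Subgroup.center L) ≃* alternatingGroup (Fin 5)) : False := by
  have hc : Nat.card (L ⧸ Subgroup.center L) = 60 := H392.HT.card_A5 e
  obtain ⟨-, h1⟩ := three_bound H hn (by rw [hc]; norm_num) (by rw [hc]; norm_num) (H392.HT.out_A5 e)
    (H392.HT.sub_A5 e) (fg_A5 e)
  have hq : 7 ≤ Nat.card K := le_of_card H hc (r := 7) fun l hl hlp => by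
    interval_cases l <;> first | omega | (revert hlp; decide)
  have := lt_of_bound (m := 5) (by omega) h1 (by norm_num)
  omega

/-- `A₆` -/
theorem kill_three_A6 (H : QS p K V G L h) [Finite V] (hn : Module.finrank K V = 3)
    (e : (L ⧸ Subgroup.center L) ≃* alternatingGroup (Fin 6)) : False := by
  have hc : Nat.card (L ⧸ Subgroup.center L) = 360 := H392.HT.card_A6 e
  obtain ⟨h3, h1⟩ := three_bound H hn (by rw [hc]; norm_num) (by rw [hc]; norm_num) (H392.HT.out_A6 e)
    (H392.HT.sub_A6 e) (fg_A6 e)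
  have hq : 7 ≤ Nat.card K := le_of_card H hc (r := 7) fun l hl hlp => by
    interval_cases l <;> first | omega | (revert hlp; decide)
  have hlt := lt_of_bound (m := 11) (by omega) h1 (by norm_num)
  have hcop := H.coprime
  have hq7 : Nat.card K = 7 := by
    rw [hc] at hcop
    generalize Nat.card K = q at hcop hq hlt
    interval_cases q <;> first | rfl | (revert hcop; decide)
  obtain ⟨m, h', -, h2, hm, ho, hA, hle⟩ := H.cand h3
  rw [hc] at ho
  rw [hn, hq7] at hm
  rw [hq7] at hA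
  rw [hn, hq7] at hle
  have hA' : Nat.card (MulAut (L ⧸ Subgroup.center L)) ∣ 1440 := by
    rw [Nat.card_congr (MulAut.congr e).toEquiv]; exact H392.HT.card_mulAut_A6_dvd
  have hm2 : m ∣ 8640 := (Dvd.intro _ rfl).trans (hA.trans (Nat.mul_dvd_mul_left 6 hA'))
  have hm3 : m ∣ 18 := by
    have := Nat.dvd_gcd hm hm2
    norm_num at this
    exact this
  rcases (Nat.le_of_dvd (by norm_num) hm3).lt_or_eq with hlt18 | rfl
  · have hm9 : m ≤ 9 := by
      obtain ⟨k, hk⟩ := hm3
      have hk2 : 2 ≤ k := by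
        by_contra hcon
        have : k = 0 ∨ k = 1 := by omega
        rcases this with rfl | rfl <;> omega
      nlinarith
    have hm81 : m ^ 2 ≤ 81 := by nlinarith
    have h4 : h' * m ^ 2 ≤ h' * 81 := Nat.mul_le_mul_left _ hm81
    omega
  · have h20 : 20 ∣ h' := by
      have : 18 * 20 ∣ 18 * h' := ho
      exact Nat.dvd_of_mul_dvd_mul_left (by norm_num) this
    have := Nat.le_of_dvd (by omega) h20
    omega

/-- `L₂(7)` -/
theorem kill_three_L27 (H : QS p K V G L h) [Finite V] (hn : Module.finrank K V = 3)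
    (hS : H912.Bd.IsL 2 7 (L ⧸ Subgroup.center L)) : False := by
  have hc : Nat.card (L ⧸ Subgroup.center L) = 168 := H392.HT.card_L27 hS
  have hA2 := aut_L27 hS
  obtain ⟨h3, h1⟩ := three_bound H hn (by rw [hc]; norm_num) (by rw [hc]; norm_num)
    (by rw [hA2, hc]; norm_num) (sub3_L27 hS) (fg_L27 hS)
  have hq : 5 ≤ Nat.card K := le_of_card H hc (r := 5) fun l hl hlp => by
    interval_cases l <;> first | omega | (revert hlp; decide)
  have hlt := lt_of_bound (m := 9) (by omega) h1 (by norm_num)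
  have hcop := H.coprime
  have hq5 : Nat.card K = 5 := by
    rw [hc] at hcop
    generalize Nat.card K = q at hcop hq hlt
    interval_cases q <;> first | rfl | (revert hcop; decide)
  have h5 := (H.cand h3).gcd_le H.two_le_card Nat.card_pos
  rw [hA2, hn, hq5] at h5
  revert h5
  decide

end Cfsg.Agent.H48.HT
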